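import Mathlib
import Cfsg.Agent.Lib.Linalg.OrthOrder

/-!
# Isometries of a quadratic plane

On `F × F`, an isometry of determinant `-1` is an involution, the determinant of an isometry is `± 1`.
So a Sylow `2`-subgroup `S` of the isometry group satisfies `x² ∈ S'`.
-/

set_option autoImplicit false
set_option linter.unusedSectionVars false

namespace Cfsg.Agent.Lib.OrthSyl.Plane

open QuadraticMap Cfsg.Agent.Lib.Linalg.OrthOrder
open scoped commutatorElement

universe u

variable {F : Type u} [Field F] (Q : QuadraticForm F (F × F))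

/-- The coefficients of the form. -/
noncomputable def cA : F := Q (1, 0)
noncomputable def cC : F := Q (0, 1)
noncomputable def cB : F := polar Q (1, 0) (0, 1)

theorem form_apply (x y : F) : Q (x, y) = cA Q * x * x + cB Q * x * y + cC Q * y * y := by
  have h1 : ((x, y) : F × F) = x • ((1, 0) : F × F) + y • ((0, 1) : F × F) := by
    ext <;> simp
  rw [h1, QuadraticMap.map_add Q, QuadraticMap.map_smul, QuadraticMap.map_smul, polar_smul_left,
    polar_smul_right]
  simp only [cA, cB, cC, smul_eq_mul]
  ring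

/-- The discriminant. -/
noncomputable def disc : F := 4 * cA Q * cC Q - cB Q * cB Q

variable {Q}

/-- The matrix entries of a map. -/
theorem map_eq (g : (F × F) ≃ₗ[F] (F × F)) (x y : F) :
    g (x, y) = ((g (1, 0)).1 * x + (g (0, 1)).1 * y, (g (1, 0)).2 * x + (g (0, 1)).2 * y) := by
  have h1 : ((x, y) : F × F) = x • ((1, 0) : F × F) + y • ((0, 1) : F × F) := by
    ext <;> simp
  conv_lhs => rw [h1, map_add, map_smul, map_smul]
  ext <;> simp <;> ring

/-- The determinant of an isometry in coordinates. -/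
noncomputable def detO (Q : QuadraticForm F (F × F)) : orthGroup Q →* Fˣ :=
  (LinearEquiv.det).comp (orthGroup Q).subtype

theorem coe_detO (g : orthGroup Q) :
    (detO Q g : F) = (g.1 (1, 0)).1 * (g.1 (0, 1)).2 - (g.1 (0, 1)).1 * (g.1 (1, 0)).2 := by
  have h0 : (detO Q g : F) = LinearMap.det (g.1 : (F × F) →ₗ[F] (F × F)) := by
    simp only [detO, MonoidHom.comp_apply, Subgroup.coe_subtype, LinearEquiv.coe_det]
  rw [h0, ← LinearMap.det_toMatrix (Module.Basis.finTwoProd F), Matrix.det_fin_two]
  simp only [LinearMap.toMatrix_apply, Module.Basis.coe_finTwoProd_repr, Module.Basis.finTwoProd_zero,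
    Module.Basis.finTwoProd_one]
  simp

section Relations

variable (g : orthGroup Q)

theorem rel11 : cA Q * (g.1 (1, 0)).1 * (g.1 (1, 0)).1 + cB Q * (g.1 (1, 0)).1 * (g.1 (1, 0)).2 +
    cC Q * (g.1 (1, 0)).2 * (g.1 (1, 0)).2 = cA Q := by
  have h := g.2 (1, 0)
  rw [← form_apply]
  exact h

theorem rel22 : cA Q * (g.1 (0, 1)).1 * (g.1 (0, 1)).1 + cB Q * (g.1 (0, 1)).1 * (g.1 (0, 1)).2 +
    cC Q * (g.1 (0, 1)).2 * (g.1 (0, 1)).2 = cC Q := by
  have h := g.2 (0, 1)
  rw [← form_apply]
  exact h

theorem rel12 : 2 * cA Q * (g.1 (1, 0)).1 * (g.1 (0, 1)).1 +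
    cB Q * ((g.1 (1, 0)).1 * (g.1 (0, 1)).2 + (g.1 (0, 1)).1 * (g.1 (1, 0)).2) +
    2 * cC Q * (g.1 (1, 0)).2 * (g.1 (0, 1)).2 = cB Q := by
  have h := polar_orth g (1, 0) (0, 1)
  have h2 : ∀ a b c d : F, polar Q (a, b) (c, d) =
      2 * cA Q * a * c + cB Q * (a * d + c * b) + 2 * cC Q * b * d := by
    intro a b c d
    simp only [polar, Prod.mk_add_mk, form_apply]
    ring
  have h3 : g.1 (1, 0) = ((g.1 (1, 0)).1, (g.1 (1, 0)).2) := rfl
  have h4 : g.1 (0, 1) = ((g.1 (0, 1)).1, (g.1 (0, 1)).2) := rfl
  rw [h3, h4, h2] at h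
  exact h

theorem det_sq (hd : disc Q ≠ 0) : (detO Q g : F) * (detO Q g : F) = 1 := by
  rw [coe_detO]
  have h11 := rel11 g
  have h22 := rel22 g
  have h12 := rel12 g
  set p := (g.1 (1, 0)).1
  set s := (g.1 (1, 0)).2
  set r := (g.1 (0, 1)).1
  set u := (g.1 (0, 1)).2
  set α := cA Q
  set β := cB Q
  set γ := cC Q
  have key : ((p * u - r * s) * (p * u - r * s) - 1) * (4 * α * γ - β * β) = 0 := by
    have e1 : 4 * (α * p * p + β * p * s + γ * s * s) * (α * r * r + β * r * u + γ * u * u) -
        (2 * α * p * r + β * (p * u + r * s) + 2 * γ * s * u) *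
          (2 * α * p * r + β * (p * u + r * s) + 2 * γ * s * u) =
        (p * u - r * s) * (p * u - r * s) * (4 * α * γ - β * β) := by
      ring
    rw [h11, h22, h12] at e1
    linear_combination -e1
  have h0 := (mul_eq_zero.1 key).resolve_right hd
  exact sub_eq_zero.1 h0

theorem trace_eq_zero (hd : disc Q ≠ 0) (h2 : (2 : F) ≠ 0) (hg : (detO Q g : F) = -1) :
    (g.1 (1, 0)).1 + (g.1 (0, 1)).2 = 0 := by
  rw [coe_detO] at hg
  have h11 := rel11 g
  have h22 := rel22 g
  have h12 := rel12 g
  set p := (g.1 (1, 0)).1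
  set s := (g.1 (1, 0)).2
  set r := (g.1 (0, 1)).1
  set u := (g.1 (0, 1)).2
  set α := cA Q
  set β := cB Q
  set γ := cC Q
  have hd' : 4 * α * γ - β * β ≠ 0 := hd
  have e1 : 2 * α * (p + u) = 0 := by
    linear_combination (-2 * u) * h11 + s * h12 + (2 * α * p + β * s) * hg
  have e2 : 2 * γ * (p + u) = 0 := by
    linear_combination (-2 * p) * h22 + r * h12 + (β * r + 2 * γ * u) * hg
  have e3 : 2 * β * (p + u) = 0 := by
    linear_combination (2 * r) * h11 + (2 * s) * h22 + (-(p + u)) * h12 +
      (β * p + 2 * γ * s + 2 * α * r + β * u) * hg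
  by_contra hne
  have h3 : (2 : F) * (p + u) ≠ 0 := mul_ne_zero h2 hne
  have a0 : α = 0 := by
    have : (2 * (p + u)) * α = 0 := by linear_combination e1
    exact (mul_eq_zero.1 this).resolve_left h3
  have c0 : γ = 0 := by
    have : (2 * (p + u)) * γ = 0 := by linear_combination e2
    exact (mul_eq_zero.1 this).resolve_left h3
  have b0 : β = 0 := by
    have : (2 * (p + u)) * β = 0 := by linear_combination e3
    exact (mul_eq_zero.1 this).resolve_left h3
  apply hd'
  rw [a0, b0, c0]
  ring

theorem mul_self_of_det (hd : disc Q ≠ 0) (h2 : (2 : F) ≠ 0) (hg : (detO Q g : F) = -1) :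
    g * g = 1 := by
  have ht := trace_eq_zero g hd h2 hg
  rw [coe_detO] at hg
  apply Subtype.ext
  apply LinearEquiv.ext
  rintro ⟨x, y⟩
  have h1 : ∀ v : F × F, (g * g).1 v = g.1 (g.1 v) := fun v => rfl
  rw [h1]
  set p := (g.1 (1, 0)).1 with hp
  set s := (g.1 (1, 0)).2 with hs
  set r := (g.1 (0, 1)).1 with hr
  set u := (g.1 (0, 1)).2 with hu
  have h3 : ∀ a b : F, g.1 (a, b) = (p * a + r * b, s * a + u * b) := fun a b => map_eq g.1 a b
  rw [h3, h3]
  have hu' : u = -p := by linear_combination ht
  have e1 : p * p + r * s = 1 := by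
    rw [hu'] at hg
    linear_combination -hg
  ext
  · show p * (p * x + r * y) + r * (s * x + u * y) = x
    rw [hu']
    linear_combination x * e1
  · show s * (p * x + r * y) + u * (s * x + u * y) = y
    rw [hu']
    linear_combination y * e1

end Relations

section SylowPart

variable (hd : disc Q ≠ 0) (h2 : (2 : F) ≠ 0)
include hd h2

theorem det_eq_one_or (g : orthGroup Q) : detO Q g = 1 ∨ (detO Q g : F) = -1 := by
  have h := det_sq g hd
  have h3 : ((detO Q g : F) - 1) * ((detO Q g : F) + 1) = 0 := by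
    linear_combination h
  rcases mul_eq_zero.1 h3 with h4 | h4
  · left
    exact Units.ext (sub_eq_zero.1 h4)
  · right
    linear_combination h4

/-- In a Sylow `2`-subgroup, there is an element of determinant `-1`. -/
theorem exists_det_neg [Finite (orthGroup Q)] (hr : ∃ g : orthGroup Q, (detO Q g : F) = -1)
    (S : Sylow 2 (orthGroup Q)) : ∃ r ∈ (S : Subgroup (orthGroup Q)), (detO Q r : F) = -1 := by
  haveI : Fact (Nat.Prime 2) := ⟨Nat.prime_two⟩
  obtain ⟨g₀, hg₀⟩ := hr
  by_contra hno
  push Not at hno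
  have hle : (S : Subgroup (orthGroup Q)) ≤ (detO Q).ker := by
    intro x hx
    rw [MonoidHom.mem_ker]
    exact (det_eq_one_or hd h2 x).resolve_right (hno x hx)
  have hne : (-1 : F) ≠ 1 := by
    intro h
    apply h2
    linear_combination -h
  have hidx : (detO Q).ker.index = 2 := by
    have hrange : (detO Q).range = Subgroup.zpowers (detO Q g₀) := by
      apply le_antisymm
      · rintro _ ⟨g, rfl⟩
        rcases det_eq_one_or hd h2 g with h | h
        · rw [h]
          exact one_mem _
        · have : detO Q g = detO Q g₀ := Units.ext (h.trans hg₀.symm)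
          rw [this]
          exact Subgroup.mem_zpowers _
      · rw [Subgroup.zpowers_le]
        exact ⟨g₀, rfl⟩
    rw [Subgroup.index_ker, hrange, Nat.card_zpowers]
    apply orderOf_eq_prime
    · apply Units.ext
      rw [Units.val_pow_eq_pow_val, pow_two]
      exact det_sq g₀ hd
    · intro h
      rw [h] at hg₀
      exact hne hg₀.symm
  have h3 := Subgroup.index_dvd_of_le hle
  rw [hidx] at h3
  exact S.not_dvd_index h3

/-- `x² ∈ S'` for a Sylow `2`-subgroup `S` of the isometry group of a plane. -/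
theorem sq_mem_commutator [Finite (orthGroup Q)] (hr : ∃ g : orthGroup Q, (detO Q g : F) = -1)
    (S : Sylow 2 (orthGroup Q)) (x : (S : Subgroup (orthGroup Q))) :
    x ^ 2 ∈ commutator (S : Subgroup (orthGroup Q)) := by
  obtain ⟨r, hrS, hrd⟩ := exists_det_neg hd h2 hr S
  rcases det_eq_one_or hd h2 x.1 with hx | hx
  · let r' : (S : Subgroup (orthGroup Q)) := ⟨r, hrS⟩
    have hr2 : r' * r' = 1 := Subtype.ext (mul_self_of_det r hd h2 hrd)
    have hrx : (r' * x) * (r' * x) = 1 := by
      apply Subtype.ext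
      apply mul_self_of_det (r * x.1) hd h2
      rw [map_mul, Units.val_mul, hx, hrd]
      simp
    have hrinv : r'⁻¹ = r' := inv_eq_of_mul_eq_one_left hr2
    have h5 : x ^ 2 = ⁅x, r'⁆ := by
      rw [commutatorElement_def, hrinv, pow_two]
      have h6 : r' * x⁻¹ * r' = x := by
        have h7 : x⁻¹ = r' * x * r' := by
          rw [inv_eq_iff_mul_eq_one]
          calc x * (r' * x * r') = r'⁻¹ * ((r' * x) * (r' * x)) * r' := by
                rw [hrinv]
                calc x * (r' * x * r') = (r' * r') * x * (r' * x * r') := by rw [hr2, one_mul]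
                  _ = r' * (r' * x * (r' * x)) * r' := by group
              _ = 1 := by rw [hrx, hrinv]; simpa using hr2
        rw [h7]
        calc r' * (r' * x * r') * r' = (r' * r') * x * (r' * r') := by group
          _ = x := by rw [hr2]; simp
      calc x * x = x * (r' * x⁻¹ * r') := by rw [h6]
        _ = x * r' * x⁻¹ * r' := by group
    rw [h5]
    exact Subgroup.commutator_mem_commutator (Subgroup.mem_top _) (Subgroup.mem_top _)
  · have h3 : x ^ 2 = 1 := by
      rw [pow_two]
      exact Subtype.ext (mul_self_of_det x.1 hd h2 hx)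
    rw [h3]
    exact one_mem _

/-- If the Sylow `2`-subgroup has order `4` then it has exponent `2`. -/
theorem sq_eq_one_of_card_four [Finite (orthGroup Q)] (hr : ∃ g : orthGroup Q, (detO Q g : F) = -1)
    (S : Sylow 2 (orthGroup Q)) (hS : Nat.card (S : Subgroup (orthGroup Q)) = 4)
    (x : (S : Subgroup (orthGroup Q))) : x ^ 2 = 1 := by
  obtain ⟨r, hrS, hrd⟩ := exists_det_neg hd h2 hr S
  rcases det_eq_one_or hd h2 x.1 with hx | hx
  · by_contra hne
    have hdvd : orderOf x ∣ 2 ^ 2 := by
      have := orderOf_dvd_natCard x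
      rw [hS] at this
      simpa using this
    have hord : orderOf x = 2 ^ 2 := by
      obtain ⟨k, hk, hk2⟩ := (Nat.dvd_prime_pow Nat.prime_two).1 hdvd
      interval_cases k
      · exfalso
        apply hne
        have h3 : x = 1 := orderOf_eq_one_iff.1 (by simpa using hk2)
        rw [h3, one_pow]
      · exfalso
        apply hne
        rw [← orderOf_dvd_iff_pow_eq_one, hk2]
        simp
      · simpa using hk2
    have htop : Subgroup.zpowers x = ⊤ := by
      apply Subgroup.eq_top_of_card_eq
      rw [Nat.card_zpowers, hS, hord]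
      norm_num
    have hrm : (⟨r, hrS⟩ : (S : Subgroup (orthGroup Q))) ∈ Subgroup.zpowers x := by
      rw [htop]
      exact Subgroup.mem_top _
    obtain ⟨k, hk⟩ := hrm
    have h5 : detO Q r = 1 := by
      have h6 : r = (x.1) ^ k := by
        have := congrArg Subtype.val hk
        simpa using this.symm
      rw [h6, map_zpow, hx, one_zpow]
    rw [h5] at hrd
    have : (1 : F) = -1 := hrd
    apply h2
    linear_combination this
  · rw [pow_two]
    exact Subtype.ext (mul_self_of_det x.1 hd h2 hx)

end SylowPart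

end Cfsg.Agent.Lib.OrthSyl.Plane
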