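import Mathlib
import Cfsg.Agent.Lib.Linalg.OrthOrder
import Cfsg.Agent.Lib.OrthSyl.Core

/-!
# The wreath-type subgroup of the isometry group of `P₀^I × W`
-/

set_option autoImplicit false
set_option linter.unusedSectionVars false

namespace Cfsg.Agent.Lib.OrthSyl.Wreath

open Equiv QuadraticMap Cfsg.Agent.Lib.Linalg.OrthOrder Cfsg.Agent.Lib.OrthSyl.Core
open scoped commutatorElement

universe u v w x

variable {F : Type u} [Field F]
variable {P₀ : Type v} [AddCommGroup P₀] [Module F P₀]
variable {W : Type w} [AddCommGroup W] [Module F W]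
variable {I : Type x} [Fintype I] [DecidableEq I]

/-- The form on `P₀^I × W`. -/
noncomputable def wForm (I : Type x) [Fintype I] (Q₀ : QuadraticForm F P₀) (QW : QuadraticForm F W) :
    QuadraticForm F ((I → P₀) × W) :=
  (QuadraticMap.pi fun _ : I => Q₀).prod QW

theorem wForm_apply (Q₀ : QuadraticForm F P₀) (QW : QuadraticForm F W) (v : (I → P₀) × W) :
    wForm I Q₀ QW v = ∑ i, Q₀ (v.1 i) + QW v.2 := by
  simp [wForm, QuadraticMap.prod_apply, QuadraticMap.pi_apply]

variable (Q₀ : QuadraticForm F P₀) (QW : QuadraticForm F W)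

/-- The action of the base group. -/
noncomputable def coordHom : (I → orthGroup Q₀) × orthGroup QW →* orthGroup (wForm I Q₀ QW) where
  toFun n := ⟨LinearEquiv.prodCongr (LinearEquiv.piCongrRight fun i => ((n.1 i : orthGroup Q₀) : P₀ ≃ₗ[F] P₀))
      ((n.2 : orthGroup QW) : W ≃ₗ[F] W), fun v => by
    rw [wForm_apply, wForm_apply]
    congr 1
    · exact Finset.sum_congr rfl fun i _ => (n.1 i).2 (v.1 i)
    · exact n.2.2 v.2⟩
  map_one' := by
    apply Subtype.ext
    ext v <;> rfl
  map_mul' a b := by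
    apply Subtype.ext
    ext v <;> rfl

theorem coordHom_apply_fst (n : (I → orthGroup Q₀) × orthGroup QW) (v : (I → P₀) × W) (i : I) :
    ((coordHom Q₀ QW n : orthGroup (wForm I Q₀ QW)).1 v).1 i = (n.1 i).1 (v.1 i) := rfl

theorem coordHom_apply_snd (n : (I → orthGroup Q₀) × orthGroup QW) (v : (I → P₀) × W) :
    ((coordHom Q₀ QW n : orthGroup (wForm I Q₀ QW)).1 v).2 = n.2.1 v.2 := rfl

/-- The action of the permutations. -/
noncomputable def permHom : Perm I →* orthGroup (wForm I Q₀ QW) where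
  toFun σ := ⟨LinearEquiv.prodCongr (LinearEquiv.funCongrLeft F P₀ σ⁻¹) (LinearEquiv.refl F W), fun v => by
    rw [wForm_apply, wForm_apply]
    congr 1
    exact Equiv.sum_comp σ⁻¹ (fun i => Q₀ (v.1 i))⟩
  map_one' := by
    apply Subtype.ext
    ext v <;> rfl
  map_mul' a b := by
    apply Subtype.ext
    ext v <;> rfl

theorem permHom_apply_fst (σ : Perm I) (v : (I → P₀) × W) (i : I) :
    ((permHom Q₀ QW σ : orthGroup (wForm I Q₀ QW)).1 v).1 i = v.1 (σ⁻¹ i) := rfl

theorem permHom_apply_snd (σ : Perm I) (v : (I → P₀) × W) :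
    ((permHom Q₀ QW σ : orthGroup (wForm I Q₀ QW)).1 v).2 = v.2 := rfl

theorem isWreath : IsWreath (coordHom (I := I) Q₀ QW) (permHom Q₀ QW) := by
  intro σ n
  rw [mul_inv_eq_iff_eq_mul]
  apply Subtype.ext
  apply LinearEquiv.ext
  intro v
  ext1
  · funext i
    simp only [Subgroup.coe_mul, LinearEquiv.mul_apply]
    rw [permHom_apply_fst, coordHom_apply_fst, coordHom_apply_fst, permHom_apply_fst]
  · rfl

/-- Restriction of the coordinates to subgroups. -/
noncomputable def coordHomOf (A : Subgroup (orthGroup Q₀)) (B : Subgroup (orthGroup QW)) :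
    (I → A) × B →* orthGroup (wForm I Q₀ QW) :=
  (coordHom Q₀ QW).comp (MonoidHom.prodMap (MonoidHom.compLeft A.subtype I) B.subtype)

theorem isWreath_of (A : Subgroup (orthGroup Q₀)) (B : Subgroup (orthGroup QW)) :
    IsWreath (coordHomOf (I := I) Q₀ QW A B) (permHom Q₀ QW) := by
  intro σ n
  have h := isWreath (I := I) Q₀ QW σ (MonoidHom.prodMap (MonoidHom.compLeft A.subtype I) B.subtype n)
  exact h

theorem injective_mul (A : Subgroup (orthGroup Q₀)) (B : Subgroup (orthGroup QW)) (v₀ : P₀) (hv₀ : v₀ ≠ 0)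
    (T : Subgroup (Perm I)) :
    Function.Injective fun p : ((I → A) × B) × T =>
      coordHomOf (I := I) Q₀ QW A B p.1 * permHom Q₀ QW p.2 := by
  classical
  intro ⟨n, t⟩ ⟨n', t'⟩ h
  simp only at h
  have hact : ∀ v : (I → P₀) × W, ∀ i,
      (((n.1 i : A) : orthGroup Q₀)).1 (v.1 ((t : Perm I)⁻¹ i)) =
        (((n'.1 i : A) : orthGroup Q₀)).1 (v.1 ((t' : Perm I)⁻¹ i)) := by
    intro v i
    have h2 := congrArg (fun g : orthGroup (wForm I Q₀ QW) => (g.1 v).1 i) h
    exact h2
  have hact2 : ∀ v : (I → P₀) × W, ((n.2 : B) : orthGroup QW).1 v.2 = ((n'.2 : B) : orthGroup QW).1 v.2 := by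
    intro v
    have h2 := congrArg (fun g : orthGroup (wForm I Q₀ QW) => (g.1 v).2) h
    exact h2
  have ht : t = t' := by
    apply Subtype.ext
    apply inv_injective
    ext i
    by_contra hne
    have h3 := hact (Pi.single ((t : Perm I)⁻¹ i) v₀, 0) i
    simp only [Pi.single_eq_same] at h3
    rw [Pi.single_eq_of_ne (Ne.symm hne), map_zero] at h3
    have := (((n.1 i : A) : orthGroup Q₀)).1.injective (h3.trans (map_zero _).symm)
    exact hv₀ this
  subst ht
  congr 1
  ext1
  · funext i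
    apply Subtype.ext
    apply Subtype.ext
    apply LinearEquiv.ext
    intro x
    have h3 := hact (Pi.single ((t : Perm I)⁻¹ i) x, 0) i
    simpa using h3
  · apply Subtype.ext
    apply Subtype.ext
    apply LinearEquiv.ext
    intro x
    exact hact2 (0, x)

end Cfsg.Agent.Lib.OrthSyl.Wreath
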